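import Mathlib
import Cfsg.Agent.S0044
import Cfsg.Agent.S0008
/-!
Fixed point spaces in primitive soluble linear groups.
-/
set_option autoImplicit false
set_option maxHeartbeats 400000
namespace CfsgL.Prim34
open scoped commutatorElement

section linear
variable {F V G : Type*} [Field F] [AddCommGroup V] [Module F V] [FiniteDimensional F V] [Group G]

def Cl (R : Subalgebra F (Module.End F V)) (W : Submodule F V) : Prop :=
  ∀ v, (∀ r ∈ R, (∀ w ∈ W, r w = 0) → r v = 0) → v ∈ W

def MinCl (R : Subalgebra F (Module.End F V)) (W : Submodule F V) : Prop :=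
  Cl R W ∧ W ≠ ⊥ ∧ ∀ W', Cl R W' → W' ≠ ⊥ → Module.finrank F W ≤ Module.finrank F W'

omit [FiniteDimensional F V] in
theorem cl_inv {R : Subalgebra F (Module.End F V)} (hcomm : ∀ r ∈ R, ∀ s ∈ R, r * s = s * r)
    {W : Submodule F V} (h : Cl R W) {r : Module.End F V} (hr : r ∈ R) {w : V} (hw : w ∈ W) : r w ∈ W := by
  apply h
  intro s hs hsW
  rw [← Module.End.mul_apply, ← hcomm r hr s hs, Module.End.mul_apply, hsW w hw, map_zero]

omit [FiniteDimensional F V] in
theorem cl_inf {R : Subalgebra F (Module.End F V)}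
    {W : Submodule F V} (h : Cl R W) {r : Module.End F V} (hr : r ∈ R) : Cl R (W ⊓ LinearMap.ker r) := by
  intro v hv
  refine ⟨h v (fun s hs hsW => hv s hs (fun w hw => hsW w hw.1)), ?_⟩
  change r v = 0
  exact hv r hr (fun w hw => hw.2)

theorem dich {R : Subalgebra F (Module.End F V)}
    {W : Submodule F V} (h : MinCl R W) {r : Module.End F V} (hr : r ∈ R) :
    (∀ w ∈ W, r w = 0) ∨ (∀ w ∈ W, r w = 0 → w = 0) := by
  by_cases h0 : W ⊓ LinearMap.ker r = ⊥
  · right
    intro w hw hw0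
    have : w ∈ W ⊓ LinearMap.ker r := ⟨hw, hw0⟩
    rw [h0] at this
    exact (Submodule.mem_bot F).1 this
  · left
    have h1 := h.2.2 _ (cl_inf h.1 hr) h0
    have h2 := Submodule.eq_of_le_of_finrank_le inf_le_left h1
    intro w hw
    rw [← h2] at hw
    exact hw.2

omit [FiniteDimensional F V] in
theorem rho_inv (ρ : G →* Module.End F V) (g : G) (v : V) : ρ g (ρ g⁻¹ v) = v := by
  rw [← Module.End.mul_apply, ← map_mul, mul_inv_cancel, map_one]; rfl

omit [FiniteDimensional F V] in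
theorem rho_inv' (ρ : G →* Module.End F V) (g : G) (v : V) : ρ g⁻¹ (ρ g v) = v := by
  rw [← Module.End.mul_apply, ← map_mul, inv_mul_cancel, map_one]; rfl

omit [FiniteDimensional F V] in
theorem rho_injective (ρ : G →* Module.End F V) (g : G) : Function.Injective (ρ g) :=
  Function.LeftInverse.injective (rho_inv' ρ g)

omit [FiniteDimensional F V] in
theorem cl_map (ρ : G →* Module.End F V) {R : Subalgebra F (Module.End F V)}
    (hconj : ∀ g, ∀ r ∈ R, ρ g * r * ρ g⁻¹ ∈ R)
    {W : Submodule F V} (h : Cl R W) (g : G) : Cl R (W.map (ρ g)) := by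
  intro v hv
  refine ⟨ρ g⁻¹ v, ?_, rho_inv ρ g v⟩
  apply h
  intro r hr hrW
  have h1 := hv _ (hconj g r hr) (by
    rintro _ ⟨w, hw, rfl⟩
    rw [Module.End.mul_apply, Module.End.mul_apply, rho_inv', hrW w hw, map_zero])
  rw [Module.End.mul_apply, Module.End.mul_apply] at h1
  exact rho_injective ρ g (by rw [h1, map_zero])

omit [FiniteDimensional F V] in
theorem finrank_map (ρ : G →* Module.End F V) (W : Submodule F V) (g : G) :
    Module.finrank F (W.map (ρ g)) = Module.finrank F W :=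
  (Submodule.equivMapOfInjective (ρ g) (rho_injective ρ g) W).finrank_eq.symm

theorem minCl_map (ρ : G →* Module.End F V) {R : Subalgebra F (Module.End F V)}
    (hconj : ∀ g, ∀ r ∈ R, ρ g * r * ρ g⁻¹ ∈ R)
    {W : Submodule F V} (h : MinCl R W) (g : G) : MinCl R (W.map (ρ g)) := by
  refine ⟨cl_map ρ hconj h.1 g, ?_, ?_⟩
  · intro h1
    apply h.2.1
    rw [← Submodule.finrank_eq_zero (R := F), ← finrank_map ρ W g, h1, finrank_bot]
  · intro W' h1 h2
    rw [finrank_map]
    exact h.2.2 W' h1 h2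

theorem indep {R : Subalgebra F (Module.End F V)} (hcomm : ∀ r ∈ R, ∀ s ∈ R, r * s = s * r)
    {ι : Type*} (D : ι → Submodule F V) (hD : ∀ i, MinCl R (D i)) (hinj : Function.Injective D) :
    iSupIndep D := by
  classical
  rw [iSupIndep_iff_finsetSum_eq_zero_imp_eq_zero]
  have key : ∀ (n : ℕ) (s : Finset ι), s.card = n → ∀ (v : ι → V), (∀ i ∈ s, v i ∈ D i) →
      (∑ i ∈ s, v i = 0) → ∀ i ∈ s, v i = 0 := by
    intro n
    induction n with
    | zero =>
      intro s hs v _ _ i hi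
      rw [Finset.card_eq_zero] at hs
      rw [hs] at hi
      simp at hi
    | succ n ih =>
      intro s hs v hv h i hi
      by_cases hj : ∃ j ∈ s, j ≠ i
      · obtain ⟨j, hjs, hji⟩ := hj
        have hr : ∃ r ∈ R, (∀ w ∈ D j, r w = 0) ∧ ¬ (∀ w ∈ D i, r w = 0) := by
          by_contra hcon
          push Not at hcon
          have h1 : D i ≤ D j := fun w hw => (hD j).1 w (fun r hr hr2 => hcon r hr hr2 w hw)
          have h2 := Submodule.eq_of_le_of_finrank_le h1 ((hD j).2.2 _ (hD i).1 (hD i).2.1)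
          exact hji (hinj h2).symm
        obtain ⟨r, hrR, hr1, hr2⟩ := hr
        have h1 := ih (s.erase j) (by rw [Finset.card_erase_of_mem hjs, hs]; rfl)
          (fun k => r (v k)) (fun k hk => cl_inv hcomm (hD k).1 hrR (hv k (Finset.mem_of_mem_erase hk))) (by
            have h3 : r (∑ k ∈ s, v k) = 0 := by rw [h, map_zero]
            rw [map_sum, ← Finset.add_sum_erase _ _ hjs, hr1 _ (hv j hjs), zero_add] at h3
            exact h3) i (Finset.mem_erase.2 ⟨Ne.symm hji, hi⟩)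
        rcases dich (hD i) hrR with h4 | h4
        · exact absurd h4 hr2
        · exact h4 _ (hv i hi) h1
      · push Not at hj
        have h1 : s = {i} := by
          ext k
          rw [Finset.mem_singleton]
          exact ⟨fun hk => hj k hk, fun hk => hk ▸ hi⟩
        rw [h1, Finset.sum_singleton] at h
        exact h
  intro s v hv h
  exact key s.card s rfl v hv h

theorem field_like [Finite G] (ρ : G →* Module.End F V) (R : Subalgebra F (Module.End F V))
    (hcomm : ∀ r ∈ R, ∀ s ∈ R, r * s = s * r)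
    (hconj : ∀ g, ∀ r ∈ R, ρ g * r * ρ g⁻¹ ∈ R)
    (hirr : ∀ W : Submodule F V, (∀ g, W.map (ρ g) ≤ W) → W = ⊥ ∨ W = ⊤)
    (hprim : ∀ (m t : ℕ) (D : Fin t → Submodule F V), 2 ≤ t → 0 < m → (∀ i, Module.finrank F (D i) = m) →
      iSupIndep D → iSup D = ⊤ → ¬ ∀ g, ∃ σ : Equiv.Perm (Fin t), ∀ i, (D i).map (ρ g) = D (σ i))
    {r : Module.End F V} (hr : r ∈ R) (hr0 : r ≠ 0) {v : V} (hv : r v = 0) : v = 0 := by
  classical
  rcases subsingleton_or_nontrivial V with hV | hV
  · exact Subsingleton.elim _ _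
  have hex : ∃ d, ∃ W : Submodule F V, Cl R W ∧ W ≠ ⊥ ∧ Module.finrank F W = d :=
    ⟨_, ⊤, fun _ _ => trivial, top_ne_bot, rfl⟩
  obtain ⟨W, hW1, hW0, hWd⟩ := Nat.find_spec hex
  have hW : MinCl R W := ⟨hW1, hW0, fun W' h h0 => by
    rw [hWd]; exact Nat.find_min' hex ⟨W', h, h0, rfl⟩⟩
  let O : Set (Submodule F V) := Set.range (fun g : G => W.map (ρ g))
  haveI : Finite O := Set.finite_range _
  let e : Fin (Nat.card O) ≃ O := (Finite.equivFin O).symm
  let D : Fin (Nat.card O) → Submodule F V := fun i => (e i).1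
  have hDmin : ∀ i, MinCl R (D i) := by
    intro i
    obtain ⟨g, hg⟩ := (e i).2
    change MinCl R (e i).1
    rw [← hg]
    exact minCl_map ρ hconj hW g
  have hDinj : Function.Injective D := fun i j h => e.injective (Subtype.ext h)
  have hind := indep hcomm D hDmin hDinj
  have hDd : ∀ i, Module.finrank F (D i) = Module.finrank F W := by
    intro i
    obtain ⟨g, hg⟩ := (e i).2
    change Module.finrank F (e i).1 = _
    rw [← hg]
    exact finrank_map ρ W g
  have hmm : ∀ (g h : G), (W.map (ρ h)).map (ρ g) = W.map (ρ (g * h)) := by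
    intro g h
    rw [← Submodule.map_comp, map_mul]; rfl
  have hO : ∀ (g : G) (X : O), X.1.map (ρ g) ∈ O := by
    rintro g ⟨_, ⟨h, rfl⟩⟩
    exact ⟨g * h, (hmm g h).symm⟩
  have hperm : ∀ g, ∃ σ : Equiv.Perm (Fin (Nat.card O)), ∀ i, (D i).map (ρ g) = D (σ i) := by
    intro g
    let π : Equiv.Perm O :=
      { toFun := fun X => ⟨X.1.map (ρ g), hO g X⟩
        invFun := fun X => ⟨X.1.map (ρ g⁻¹), hO g⁻¹ X⟩
        left_inv := by
          rintro ⟨_, ⟨h, rfl⟩⟩
          apply Subtype.ext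
          change ((W.map (ρ h)).map (ρ g)).map (ρ g⁻¹) = _
          rw [hmm, hmm, inv_mul_cancel_left]
        right_inv := by
          rintro ⟨_, ⟨h, rfl⟩⟩
          apply Subtype.ext
          change ((W.map (ρ h)).map (ρ g⁻¹)).map (ρ g) = _
          rw [hmm, hmm, mul_inv_cancel_left] }
    refine ⟨(e.trans π).trans e.symm, fun i => ?_⟩
    change _ = (e (e.symm (π (e i)))).1
    rw [e.apply_symm_apply]; rfl
  have hWO : W ∈ O := ⟨1, by
    change Submodule.map (ρ 1) W = W
    rw [map_one]; exact Submodule.map_id W⟩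
  have htop : iSup D = ⊤ := by
    rcases hirr (iSup D) (by
      intro g
      obtain ⟨σ, hσ⟩ := hperm g
      rw [Submodule.map_iSup]
      apply iSup_le
      intro i
      rw [hσ]
      exact le_iSup D (σ i)) with h | h
    · exfalso
      apply hW0
      rw [eq_bot_iff, ← h]
      have h1 : D (e.symm ⟨W, hWO⟩) = W := by
        change (e (e.symm ⟨W, hWO⟩)).1 = W
        rw [e.apply_symm_apply]
      rw [← h1]
      exact le_iSup D _
    · exact h
  have ht : ¬ 2 ≤ Nat.card O := fun h => hprim _ _ D h (Nat.pos_of_ne_zero (fun h0 => hW0 (Submodule.finrank_eq_zero.1 h0))) hDd hind htop hperm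
  have hsub : Subsingleton O := by
    rw [← Finite.card_le_one_iff_subsingleton]; omega
  have hWtop : W = ⊤ := by
    rw [eq_top_iff, ← htop]
    apply iSup_le
    intro i
    have : e i = ⟨W, hWO⟩ := Subsingleton.elim _ _
    change (e i).1 ≤ W
    rw [this]
  rcases dich hW hr with h | h
  · exfalso
    apply hr0
    ext w
    exact h w (by rw [hWtop]; trivial)
  · exact h v (by rw [hWtop]; trivial) hv

omit [FiniteDimensional F V] in
theorem adjoin_comm (ρ : G →* Module.End F V) (A : Subgroup G) (hA : ∀ a ∈ A, ∀ b ∈ A, a * b = b * a) :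
    ∀ r ∈ Algebra.adjoin F (ρ '' (A : Set G)), ∀ s ∈ Algebra.adjoin F (ρ '' (A : Set G)), r * s = s * r := by
  have h1 : Algebra.adjoin F (ρ '' (A : Set G)) ≤ Subalgebra.centralizer F (ρ '' (A : Set G)) := by
    apply Algebra.adjoin_le
    rintro _ ⟨a, ha, rfl⟩
    rw [SetLike.mem_coe, Subalgebra.mem_centralizer_iff]
    rintro _ ⟨b, hb, rfl⟩
    rw [← map_mul, ← map_mul, hA b hb a ha]
  have h2 : Algebra.adjoin F (ρ '' (A : Set G)) ≤
      Subalgebra.centralizer F (Algebra.adjoin F (ρ '' (A : Set G)) : Set (Module.End F V)) := by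
    apply Algebra.adjoin_le
    intro x hx
    rw [SetLike.mem_coe, Subalgebra.mem_centralizer_iff]
    intro g hg
    exact ((Subalgebra.mem_centralizer_iff F).1 (h1 hg) x hx).symm
  intro r hr s hs
  exact (Subalgebra.mem_centralizer_iff F).1 (h2 hs) r hr

omit [FiniteDimensional F V] in
theorem adjoin_conj (ρ : G →* Module.End F V) (A : Subgroup G) [hN : A.Normal] :
    ∀ g, ∀ r ∈ Algebra.adjoin F (ρ '' (A : Set G)), ρ g * r * ρ g⁻¹ ∈ Algebra.adjoin F (ρ '' (A : Set G)) := by
  intro g r hr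
  have hgg : ρ g * ρ g⁻¹ = 1 := by rw [← map_mul, mul_inv_cancel, map_one]
  have hgg' : ρ g⁻¹ * ρ g = 1 := by rw [← map_mul, inv_mul_cancel, map_one]
  induction hr using Algebra.adjoin_induction with
  | mem x hx =>
    obtain ⟨a, ha, rfl⟩ := hx
    apply Algebra.subset_adjoin
    exact ⟨g * a * g⁻¹, hN.conj_mem a ha g, by rw [map_mul, map_mul]⟩
  | algebraMap c =>
    rw [← Algebra.commutes, mul_assoc, hgg, mul_one]
    exact Subalgebra.algebraMap_mem _ c
  | add x y _ _ hx hy =>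
    rw [mul_add, add_mul]
    exact Subalgebra.add_mem _ hx hy
  | mul x y _ _ hx hy =>
    have : ρ g * (x * y) * ρ g⁻¹ = (ρ g * x * ρ g⁻¹) * (ρ g * y * ρ g⁻¹) := by
      calc ρ g * (x * y) * ρ g⁻¹ = ρ g * x * 1 * y * ρ g⁻¹ := by rw [mul_one]; simp only [mul_assoc]
        _ = _ := by rw [← hgg']; simp only [mul_assoc]
    rw [this]
    exact Subalgebra.mul_mem _ hx hy

end linear

section group
variable {G : Type*} [Group G] [Finite G]

/-- in a finite group, with A maximal abelian normal inside the Fitting subgroup: an element of `C_F(A)` outside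
`A` has a nontrivial commutator inside `A`. -/
theorem exists_comm (N : Subgroup G) [hN : N.Normal] (hnil : Group.IsNilpotent N) (A : Subgroup G) [hAn : A.Normal]
    (hAN : A ≤ N) (hA : ∀ a ∈ A, ∀ b ∈ A, a * b = b * a)
    (hmax : ∀ B : Subgroup G, B.Normal → A ≤ B → (∀ a ∈ B, ∀ b ∈ B, a * b = b * a) → B ≤ A)
    {f : G} (hf : f ∈ N) (hfA : ∀ a ∈ A, f * a = a * f) (hfn : f ∉ A) :
    ∃ x, ⁅f, x⁆ ∈ A ∧ ⁅f, x⁆ ≠ 1 := by
  let C : Subgroup G := N ⊓ Subgroup.centralizer (A : Set G)
  have hCm : ∀ {x}, x ∈ C ↔ x ∈ N ∧ ∀ a ∈ A, a * x = x * a := by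
    intro x
    exact Iff.and Iff.rfl Subgroup.mem_centralizer_iff
  haveI hCn : C.Normal := inferInstance
  have hAC : A ≤ C := fun a ha => hCm.2 ⟨hAN ha, fun b hb => hA b hb a ha⟩
  have hfC : f ∈ C := hCm.2 ⟨hf, fun a ha => (hfA a ha).symm⟩
  -- second centre relative to A
  let Z : Subgroup G :=
    { carrier := {x | x ∈ C ∧ ∀ y ∈ C, ⁅x, y⁆ ∈ A}
      one_mem' := ⟨C.one_mem, fun y _ => by rw [commutatorElement_one_left]; exact A.one_mem⟩
      mul_mem' := by
        rintro a b ⟨ha, ha'⟩ ⟨hb, hb'⟩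
        refine ⟨C.mul_mem ha hb, fun y hy => ?_⟩
        have : ⁅a * b, y⁆ = a * ⁅b, y⁆ * a⁻¹ * ⁅a, y⁆ := by
          rw [commutatorElement_def, commutatorElement_def, commutatorElement_def]; group
        rw [this]
        exact A.mul_mem (hAn.conj_mem _ (hb' y hy) a) (ha' y hy)
      inv_mem' := by
        rintro a ⟨ha, ha'⟩
        refine ⟨C.inv_mem ha, fun y hy => ?_⟩
        have : ⁅a⁻¹, y⁆ = a⁻¹ * (⁅a, y⁆)⁻¹ * a⁻¹⁻¹ := by
          rw [commutatorElement_def, commutatorElement_def]; group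
        rw [this]
        exact hAn.conj_mem _ (A.inv_mem (ha' y hy)) a⁻¹ }
  have hZm : ∀ {x}, x ∈ Z ↔ x ∈ C ∧ ∀ y ∈ C, ⁅x, y⁆ ∈ A := Iff.rfl
  haveI hZn : Z.Normal := by
    constructor
    intro x hx g
    refine ⟨hCn.conj_mem x hx.1 g, fun y hy => ?_⟩
    have h1 := hx.2 (g⁻¹ * y * g⁻¹⁻¹) (hCn.conj_mem y hy g⁻¹)
    have h2 := hAn.conj_mem _ h1 g
    have : ⁅g * x * g⁻¹, y⁆ = g * ⁅x, g⁻¹ * y * g⁻¹⁻¹⁆ * g⁻¹ := by
      rw [commutatorElement_def, commutatorElement_def]; group
    rw [this]; exact h2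
  by_cases hc : ∀ x ∈ Z, ⁅f, x⁆ = 1
  · exfalso
    let C1 : Subgroup G := C ⊓ Subgroup.centralizer (Z : Set G)
    have hC1m : ∀ {x}, x ∈ C1 ↔ x ∈ C ∧ ∀ z ∈ Z, z * x = x * z := by
      intro x
      exact Iff.and Iff.rfl Subgroup.mem_centralizer_iff
    haveI hC1n : C1.Normal := inferInstance
    have hfC1 : f ∈ C1 := hC1m.2 ⟨hfC, fun z hz => (commutatorElement_eq_one_iff_mul_comm.1 (hc z hz)).symm⟩
    have hAZ : A ≤ Z := fun a ha => hZm.2 ⟨hAC ha, fun y hy => by
      have : ⁅a, y⁆ = 1 := commutatorElement_eq_one_iff_mul_comm.2 ((hCm.1 hy).2 a ha)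
      rw [this]; exact A.one_mem⟩
    have hAC1 : A ≤ C1 := fun a ha => hC1m.2 ⟨hAC ha, fun z hz => ((hCm.1 hz.1).2 a ha).symm⟩
    -- minimal index
    have hex : ∃ k : ℕ, ∃ x : N, x.1 ∈ C1 ∧ x.1 ∉ A ∧ x ∈ Subgroup.upperCentralSeries N k := by
      obtain ⟨k, hk⟩ := hnil
      exact ⟨k, ⟨f, hf⟩, hfC1, hfn, by rw [hk]; trivial⟩
    classical
    obtain ⟨x, hx1, hx2, hx3⟩ := Nat.find_spec hex
    have hmin := fun {k : ℕ} => Nat.find_min hex (m := k)
    have hk0 : Nat.find hex ≠ 0 := by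
      intro h0
      rw [h0, Subgroup.upperCentralSeries_zero, Subgroup.mem_bot] at hx3
      exact hx2 (by rw [hx3]; exact A.one_mem)
    obtain ⟨k, hk⟩ := Nat.exists_eq_succ_of_ne_zero hk0
    rw [hk, Nat.succ_eq_add_one, Subgroup.mem_upperCentralSeries_succ_iff] at hx3
    have hxZ : x.1 ∈ Z := by
      refine hZm.2 ⟨hx1.1, fun y hy => ?_⟩
      by_contra hcon
      have hyN : y ∈ N := (hCm.1 hy).1
      apply hmin (k := k) (by omega)
      refine ⟨⁅x, ⟨y, hyN⟩⁆, ?_, ?_, ?_⟩
      · change ⁅x.1, y⁆ ∈ C1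
        rw [commutatorElement_def, mul_assoc, mul_assoc]
        have := C1.mul_mem hx1 (hC1n.conj_mem _ (C1.inv_mem hx1) y)
        rwa [mul_assoc] at this
      · exact hcon
      · exact hx3 ⟨y, hyN⟩
    apply hx2
    have h1 := hmax (C1 ⊓ Z) inferInstance (le_inf hAC1 hAZ) (by
      intro a ha b hb
      exact ((hC1m.1 ha.1).2 b hb.2).symm)
    exact h1 ⟨hx1, hxZ⟩
  · push Not at hc
    obtain ⟨x, hx, hx1⟩ := hc
    refine ⟨x, ?_, hx1⟩
    have h1 := (hZm.1 hx).2 f hfC
    rw [← commutatorElement_inv]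
    exact A.inv_mem h1

end group

section main
variable {F V G : Type*} [Field F] [AddCommGroup V] [Module F V] [FiniteDimensional F V] [Group G]

theorem mem_fx (ρ : G →* Module.End F V) {g : G} {v : V} : v ∈ Module.End.eigenspace (ρ g) 1 ↔ ρ g v = v := by
  rw [Module.End.mem_eigenspace_iff, one_smul]

theorem half (ρ : G →* Module.End F V) (g x : G) :
    2 * Module.finrank F (Module.End.eigenspace (ρ g) 1) ≤
      Module.finrank F V + Module.finrank F (Module.End.eigenspace (ρ ⁅g, x⁆) 1) := by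
  have h1 := finrank_map ρ (Module.End.eigenspace (ρ g) 1) x
  have h2 := Submodule.finrank_sup_add_finrank_inf_eq (Module.End.eigenspace (ρ g) 1)
    ((Module.End.eigenspace (ρ g) 1).map (ρ x))
  have h3 : Module.End.eigenspace (ρ g) 1 ⊓ (Module.End.eigenspace (ρ g) 1).map (ρ x) ≤
      Module.End.eigenspace (ρ ⁅g, x⁆) 1 := by
    rintro v ⟨hv1', ⟨w, hw, hwv⟩⟩
    have hv1 : ρ g v = v := (mem_fx ρ).1 hv1'
    rw [mem_fx]
    have hw' : ρ g w = w := (mem_fx ρ).1 hw
    rw [commutatorElement_def, map_mul, map_mul, map_mul, Module.End.mul_apply, Module.End.mul_apply,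
      Module.End.mul_apply]
    have e1 : ρ x⁻¹ v = w := by rw [← hwv, rho_inv']
    have e2 : ρ g⁻¹ w = w := by
      conv_lhs => rw [← hw']
      exact rho_inv' ρ g w
    rw [e1, e2, hwv, hv1]
  have h4 := Submodule.finrank_mono h3
  have h5 := Submodule.finrank_le (Module.End.eigenspace (ρ g) 1 ⊔ (Module.End.eigenspace (ρ g) 1).map (ρ x))
  omega

theorem main [Finite G] [Group.IsSolvable G] (ρ : G →* Module.End F V) (hfaith : Function.Injective ρ)
    (hirr : ∀ W : Submodule F V, (∀ g, W.map (ρ g) ≤ W) → W = ⊥ ∨ W = ⊤)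
    (hprim : ∀ (m t : ℕ) (D : Fin t → Submodule F V), 2 ≤ t → 0 < m → (∀ i, Module.finrank F (D i) = m) →
      iSupIndep D → iSup D = ⊤ → ¬ ∀ g, ∃ σ : Equiv.Perm (Fin t), ∀ i, (D i).map (ρ g) = D (σ i))
    (g : G) (hg : g ≠ 1) :
    4 * Module.finrank F (Module.End.eigenspace (ρ g) 1) ≤ 3 * Module.finrank F V := by
  classical
  -- facts about abelian normal subgroups
  have fact1 : ∀ A : Subgroup G, A.Normal → (∀ a ∈ A, ∀ b ∈ A, a * b = b * a) → ∀ a ∈ A, a ≠ 1 →
      Module.finrank F (Module.End.eigenspace (ρ a) 1) = 0 := by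
    intro A hAn hA a ha ha1
    rw [Submodule.finrank_eq_zero, eq_bot_iff]
    intro v hv
    rw [mem_fx] at hv
    rw [Submodule.mem_bot]
    apply field_like ρ _ (adjoin_comm ρ A hA) (adjoin_conj ρ A) hirr hprim (r := ρ a - 1)
      (Subalgebra.sub_mem _ (Algebra.subset_adjoin ⟨a, ha, rfl⟩) (Subalgebra.one_mem _))
    · intro h
      apply ha1
      apply hfaith
      rw [map_one]; exact sub_eq_zero.1 h
    · rw [LinearMap.sub_apply, hv]; exact sub_self v
  have fact2 : ∀ A : Subgroup G, A.Normal → (∀ a ∈ A, ∀ b ∈ A, a * b = b * a) → ∀ a ∈ A, ∀ f : G, f * a ≠ a * f →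
      2 * Module.finrank F (Module.End.eigenspace (ρ f) 1) ≤ Module.finrank F V := by
    intro A hAn hA a ha f hfa
    have h1 : Module.End.eigenspace (ρ f) 1 ⊓ (Module.End.eigenspace (ρ f) 1).map (ρ a) = ⊥ := by
      rw [eq_bot_iff]
      rintro v ⟨hv1, ⟨w, hw, hwv⟩⟩
      have hv : ρ f v = v := (mem_fx ρ).1 hv1
      have hw' : ρ f w = w := (mem_fx ρ).1 hw
      rw [Submodule.mem_bot, ← hwv]
      have h2 : w = 0 := by
        apply field_like ρ _ (adjoin_comm ρ A hA) (adjoin_conj ρ A) hirr hprim (r := ρ (f * a * f⁻¹) - ρ a)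
          (Subalgebra.sub_mem _ (Algebra.subset_adjoin ⟨_, hAn.conj_mem a ha f, rfl⟩)
            (Algebra.subset_adjoin ⟨a, ha, rfl⟩))
        · intro h
          apply hfa
          have h3 := hfaith (sub_eq_zero.1 h)
          exact mul_inv_eq_iff_eq_mul.1 h3
        · rw [LinearMap.sub_apply, map_mul, map_mul, Module.End.mul_apply, Module.End.mul_apply]
          have e2 : ρ f⁻¹ w = w := by
            conv_lhs => rw [← hw']
            exact rho_inv' ρ f w
          rw [e2, hwv, hv, sub_self]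
      rw [h2, map_zero]
    have h2 := Submodule.finrank_sup_add_finrank_inf_eq (Module.End.eigenspace (ρ f) 1)
      ((Module.End.eigenspace (ρ f) 1).map (ρ a))
    rw [h1, finrank_bot, finrank_map] at h2
    have h5 := Submodule.finrank_le (Module.End.eigenspace (ρ f) 1 ⊔ (Module.End.eigenspace (ρ f) 1).map (ρ a))
    omega
  -- maximal abelian normal
  let S : Set (Subgroup G) := {A | A.Normal ∧ ∀ a ∈ A, ∀ b ∈ A, a * b = b * a}
  have hS : S.Nonempty := ⟨⊥, inferInstance, by
    intro a ha b hb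
    rw [Subgroup.mem_bot] at ha hb
    rw [ha, hb]⟩
  obtain ⟨A, hAmax⟩ := (Set.toFinite S).exists_maximal hS
  have hAn : A.Normal := hAmax.1.1
  have hA : ∀ a ∈ A, ∀ b ∈ A, a * b = b * a := hAmax.1.2
  have hmax : ∀ B : Subgroup G, B.Normal → A ≤ B → (∀ a ∈ B, ∀ b ∈ B, a * b = b * a) → B ≤ A :=
    fun B hB hAB hBc => hAmax.2 (show B ∈ S from ⟨hB, hBc⟩) hAB
  have hFn : (Cfsg.fittingSubgroup G).Normal := by
    have : Cfsg.fittingSubgroup G = sSup {N : Subgroup G | N.Normal ∧ Group.IsNilpotent N} := rfl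
    rw [this]
    exact Subgroup.sSup_normal _ (fun N hN => hN.1)
  have hFnil : Group.IsNilpotent (Cfsg.fittingSubgroup G) := Cfsg.Agent.S0008.result
  have hAF : A ≤ Cfsg.fittingSubgroup G := by
    apply le_sSup
    refine ⟨hAn, ?_⟩
    letI : CommGroup A := { (inferInstance : Group A) with
      mul_comm := fun a b => Subtype.ext (hA a a.2 b b.2) }
    exact CommGroup.isNilpotent
  have fact3 : ∀ f ∈ Cfsg.fittingSubgroup G, f ≠ 1 →
      2 * Module.finrank F (Module.End.eigenspace (ρ f) 1) ≤ Module.finrank F V := by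
    intro f hf hf1
    by_cases hfc : ∀ a ∈ A, f * a = a * f
    · by_cases hfA : f ∈ A
      · rw [fact1 A hAn hA f hfA hf1]; omega
      · obtain ⟨x, hx, hx1⟩ := exists_comm (Cfsg.fittingSubgroup G) hFnil A hAF hA hmax hf hfc hfA
        have h1 := half ρ f x
        rw [fact1 A hAn hA _ hx hx1] at h1
        omega
    · push Not at hfc
      obtain ⟨a, ha, hfa⟩ := hfc
      exact fact2 A hAn hA a ha f hfa
  by_cases hgF : g ∈ Cfsg.fittingSubgroup G
  · have := fact3 g hgF hg
    omega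
  · have hgc : g ∉ Subgroup.centralizer (Cfsg.fittingSubgroup G : Set G) := fun h =>
      hgF (Cfsg.Agent.S0044.result h)
    rw [Subgroup.mem_centralizer_iff] at hgc
    push Not at hgc
    obtain ⟨x, hx, hxg⟩ := hgc
    have hcx : ⁅g, x⁆ ∈ Cfsg.fittingSubgroup G := by
      rw [commutatorElement_def]
      exact Subgroup.mul_mem _ (hFn.conj_mem x hx g) (Subgroup.inv_mem _ hx)
    have hc1 : ⁅g, x⁆ ≠ 1 := fun h => hxg (commutatorElement_eq_one_iff_mul_comm.1 h).symm
    have h1 := half ρ g x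
    have h2 := fact3 _ hcx hc1
    omega

end main

end CfsgL.Prim34
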